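import Mathlib
import Cfsg.Prelude.Def_OddOrderLocal
import Cfsg.Agent.Lib.Helper48.Generation
import Cfsg.Agent.Lib.Helper91.Coprime2

/-!
BG Lemma 9.5, package P-E (helper89): coprime generation for an elementary abelian group of
rank at least 3: `V = ⟨C_V(B) : B ≤ E noncyclic⟩`.
-/

set_option autoImplicit false

namespace Cfsg.Agent.Lib.Helper89.BG95

open Cfsg

universe u

variable {G : Type u} [Group G]

theorem le_normalizer_of_forall_comm {H K : Subgroup G}
    (h : ∀ x ∈ H, ∀ y ∈ K, x * y = y * x) : H ≤ Subgroup.normalizer (K : Set G) := by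
  intro x hx
  rw [Subgroup.mem_normalizer_iff]
  intro y
  constructor
  · intro hy
    have e : x * y * x⁻¹ = y := by rw [h x hx y hy]; group
    rw [e]; exact hy
  · intro hy
    have e : y = x⁻¹ * (x * y * x⁻¹) * x := by group
    have e2 : x * (x * y * x⁻¹) = (x * y * x⁻¹) * x := h x hx _ hy
    have e3 : x⁻¹ * (x * y * x⁻¹) * x = x * y * x⁻¹ := by
      rw [mul_assoc, ← e2]; group
    rw [e, e3]; exact hy

theorem inf_normalizer_le_normalizer_inf (H K : Subgroup G) :
    Subgroup.normalizer (H : Set G) ⊓ Subgroup.normalizer (K : Set G) ≤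
      Subgroup.normalizer ((H ⊓ K : Subgroup G) : Set G) := by
  intro g hg
  obtain ⟨h1, h2⟩ := Subgroup.mem_inf.mp hg
  rw [Subgroup.mem_normalizer_iff] at h1 h2 ⊢
  intro x
  rw [Subgroup.mem_inf, Subgroup.mem_inf, h1 x, h2 x]

/-- A cyclic subgroup of exponent `p` has at most `p` elements. -/
theorem card_le_of_isCyclic_of_exp {p : ℕ} (hp : 0 < p) {H : Subgroup G}
    (hc : IsCyclic H) (hexp : ∀ x ∈ H, x ^ p = 1) : Nat.card H ≤ p := by
  obtain ⟨g, hg⟩ := hc.exists_generator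
  have h1 : orderOf g = Nat.card H := orderOf_eq_card_of_forall_mem_zpowers hg
  have h2 : g ^ p = 1 := Subtype.ext (by simpa using hexp g g.2)
  rw [← h1]
  exact Nat.le_of_dvd hp (orderOf_dvd_of_pow_eq_one h2)

theorem card_zpowers_eq_prime {p : ℕ} [Fact p.Prime] {u : G} (hu : u ^ p = 1) (hu1 : u ≠ 1) :
    Nat.card (Subgroup.zpowers u) = p := by
  rw [Nat.card_zpowers]; exact orderOf_eq_prime hu hu1

/-- In a subgroup of prime order every nontrivial element generates. -/
theorem mem_zpowers_of_mem_zpowers_prime [Finite G] {p : ℕ} [Fact p.Prime] {u x : G}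
    (hu : u ^ p = 1) (hx : x ∈ Subgroup.zpowers u) (hx1 : x ≠ 1) : u ∈ Subgroup.zpowers x := by
  have hu1 : u ≠ 1 := by
    rintro rfl
    rw [Subgroup.zpowers_one_eq_bot, Subgroup.mem_bot] at hx
    exact hx1 hx
  have hxp : x ^ p = 1 := by
    obtain ⟨k, rfl⟩ := Subgroup.mem_zpowers_iff.mp hx
    rw [← zpow_natCast, ← zpow_mul, mul_comm, zpow_mul, zpow_natCast, hu, one_zpow]
  have hle : Subgroup.zpowers x ≤ Subgroup.zpowers u := by
    rw [Subgroup.zpowers_le]; exact hx
  have heq : Subgroup.zpowers x = Subgroup.zpowers u :=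
    Subgroup.eq_of_le_of_card_ge hle
      (by rw [card_zpowers_eq_prime hu hu1, card_zpowers_eq_prime hxp hx1])
  rw [heq]; exact Subgroup.mem_zpowers u

/-- In an elementary abelian `p`-group `E` with more than `p ^ 2` elements, every nontrivial
element `u` is avoided by some noncyclic subgroup of `E`. -/
theorem exists_noncyclic_avoiding [Finite G] {p : ℕ} [Fact p.Prime] {E : Subgroup G}
    (hcomm : ∀ x ∈ E, ∀ y ∈ E, x * y = y * x) (hexp : ∀ x ∈ E, x ^ p = 1)
    (hcard : p ^ 2 < Nat.card E) {u : G} (hu : u ∈ E) (hu1 : u ≠ 1) :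
    ∃ E' : Subgroup G, E' ≤ E ∧ ¬ IsCyclic E' ∧ u ∉ E' := by
  have hp : p.Prime := Fact.out
  set C : Subgroup G := Subgroup.zpowers u with hC
  have hCE : C ≤ E := by rw [hC, Subgroup.zpowers_le]; exact hu
  have hCcard : Nat.card C = p := card_zpowers_eq_prime (hexp u hu) hu1
  obtain ⟨E', ⟨hE'E, hCE'⟩, hmax⟩ := Set.exists_max_image
    {H : Subgroup G | H ≤ E ∧ C ⊓ H = ⊥} (fun H => Nat.card H) (Set.toFinite _)
    ⟨⊥, bot_le, inf_bot_eq C⟩
  have huE' : u ∉ E' := by
    intro h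
    have : u ∈ C ⊓ E' := ⟨Subgroup.mem_zpowers u, h⟩
    rw [hCE', Subgroup.mem_bot] at this
    exact hu1 this
  refine ⟨E', hE'E, ?_, huE'⟩
  intro hcyc
  have hE'card : Nat.card E' ≤ p :=
    card_le_of_isCyclic_of_exp hp.pos hcyc (fun x hx => hexp x (hE'E hx))
  have hnorm : ∀ H K : Subgroup G, H ≤ E → K ≤ E → K ≤ Subgroup.normalizer (H : Set G) :=
    fun H K hH hK => le_normalizer_of_forall_comm
      (fun x hx y hy => hcomm x (hK hx) y (hH hy))
  have hCE'card : Nat.card (C ⊔ E' : Subgroup G) = p * Nat.card E' := by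
    have := Cfsg.Agent.Lib.Helper91.card_sup_mul_card_inf_of_le_normalizer C E'
      (hnorm C E' hCE hE'E)
    rw [hCE', Subgroup.card_bot, mul_one, hCcard] at this
    exact this
  have hlt : Nat.card (C ⊔ E' : Subgroup G) < Nat.card E := by
    rw [hCE'card]
    calc p * Nat.card E' ≤ p * p := Nat.mul_le_mul_left p hE'card
      _ = p ^ 2 := (sq p).symm
      _ < Nat.card E := hcard
  have hex : ∃ w ∈ E, w ∉ C ⊔ E' := by
    by_contra hne
    push Not at hne
    exact absurd (Subgroup.card_le_of_le (fun w hw => hne w hw)) (not_le.mpr hlt)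
  obtain ⟨w, hwE, hw⟩ := hex
  have hw1 : w ≠ 1 := by
    rintro rfl
    exact hw (Subgroup.one_mem _)
  set D : Subgroup G := Subgroup.zpowers w with hD
  have hDE : D ≤ E := by rw [hD, Subgroup.zpowers_le]; exact hwE
  have hDcard : Nat.card D = p := card_zpowers_eq_prime (hexp w hwE) hw1
  have hE''E : E' ⊔ D ≤ E := sup_le hE'E hDE
  have hE''card : Nat.card (E' ⊔ D : Subgroup G) ≤ Nat.card E' * p := by
    have := Cfsg.Agent.Lib.Helper91.card_sup_mul_card_inf_of_le_normalizer E' D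
      (hnorm E' D hE'E hDE)
    rw [hDcard] at this
    rw [← this]
    exact Nat.le_mul_of_pos_right _ Nat.card_pos
  have hwE'' : w ∈ E' ⊔ D := (le_sup_right : D ≤ E' ⊔ D) (Subgroup.mem_zpowers w)
  have hCE'' : C ⊓ (E' ⊔ D) = ⊥ := by
    by_contra hne
    obtain ⟨x, hx1⟩ := (Subgroup.ne_bot_iff_exists_ne_one).mp hne
    have hx1' : (x : G) ≠ 1 := fun h => hx1 (Subtype.ext h)
    have huE'' : u ∈ E' ⊔ D := by
      have h1 : u ∈ Subgroup.zpowers (x : G) :=
        mem_zpowers_of_mem_zpowers_prime (hexp u hu) x.2.1 hx1'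
      have h2 : Subgroup.zpowers (x : G) ≤ E' ⊔ D := by
        rw [Subgroup.zpowers_le]; exact x.2.2
      exact h2 h1
    have hle : C ⊔ E' ≤ E' ⊔ D :=
      sup_le (by rw [hC, Subgroup.zpowers_le]; exact huE'') le_sup_left
    have heq : C ⊔ E' = E' ⊔ D :=
      Subgroup.eq_of_le_of_card_ge hle (by rw [hCE'card, mul_comm]; exact hE''card)
    exact hw (heq ▸ hwE'')
  have h3 := hmax (E' ⊔ D) ⟨hE''E, hCE''⟩
  have heq : E' = E' ⊔ D := Subgroup.eq_of_le_of_card_ge le_sup_left h3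
  exact hw ((le_sup_right : E' ≤ C ⊔ E') (heq ▸ hwE''))

/-- Package P-E: rank-3 coprime generation.  If `E` is elementary abelian with more than
`p ^ 2` elements and normalizes the `p'`-subgroup `V`, then `V` is generated by the
`C_V(B)`, `B ≤ E` noncyclic. -/
theorem rank3_generation_le [Finite G] {p : ℕ} [Fact p.Prime] (V E : Subgroup G)
    (hcomm : ∀ x ∈ E, ∀ y ∈ E, x * y = y * x) (hexp : ∀ x ∈ E, x ^ p = 1)
    (hcard : p ^ 2 < Nat.card E) (hV : ¬ p ∣ Nat.card V)
    (hEV : E ≤ Subgroup.normalizer (V : Set G)) (Y : Subgroup G)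
    (hY : ∀ B : Subgroup G, B ≤ E → Nat.card B = p ^ 2 → ¬ IsCyclic B →
      V ⊓ Subgroup.centralizer (B : Set G) ≤ Y) : V ≤ Y := by
  have hp : p.Prime := Fact.out
  have hnc : ¬ IsCyclic E := by
    intro hc
    have h1 := card_le_of_isCyclic_of_exp hp.pos hc hexp
    have h2 : p ≤ p ^ 2 := Nat.le_self_pow (by norm_num) p
    omega
  apply Cfsg.Agent.Lib.Helper48.coprime_generation_le V E hcomm hexp hnc hV hEV Y
  intro u hu hu1
  obtain ⟨E', hE'E, hnc', huE'⟩ := exists_noncyclic_avoiding hcomm hexp hcard hu hu1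
  apply Cfsg.Agent.Lib.Helper48.coprime_generation_le
    (V ⊓ Subgroup.centralizer ({u} : Set G)) E'
    (fun x hx y hy => hcomm x (hE'E hx) y (hE'E hy)) (fun x hx => hexp x (hE'E hx)) hnc'
    (fun h => hV (h.trans (Subgroup.card_dvd_of_le inf_le_left))) ?_ Y ?_
  · intro e he
    apply inf_normalizer_le_normalizer_inf
    refine ⟨hEV (hE'E he), Subgroup.le_normalizer ?_⟩
    rw [Subgroup.mem_centralizer_iff]
    intro y hy
    rw [Set.mem_singleton_iff] at hy
    subst hy
    exact hcomm y hu e (hE'E he)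
  · intro x hx hx1
    set B : Subgroup G := Subgroup.zpowers u ⊔ Subgroup.zpowers x with hB
    have hBE : B ≤ E := by
      rw [hB]
      refine sup_le ?_ ?_
      · rw [Subgroup.zpowers_le]; exact hu
      · rw [Subgroup.zpowers_le]; exact hE'E hx
    have hBnc : ¬ IsCyclic B := by
      intro hc
      have h1 := card_le_of_isCyclic_of_exp hp.pos hc (fun y hy => hexp y (hBE hy))
      have h2 : Subgroup.zpowers u = B :=
        Subgroup.eq_of_le_of_card_ge le_sup_left
          (by rw [card_zpowers_eq_prime (hexp u hu) hu1]; exact h1)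
      have h3 : x ∈ Subgroup.zpowers u := by
        rw [h2]; exact (le_sup_right : Subgroup.zpowers x ≤ B) (Subgroup.mem_zpowers x)
      have h4 : u ∈ Subgroup.zpowers x :=
        mem_zpowers_of_mem_zpowers_prime (hexp u hu) h3 hx1
      have h5 : Subgroup.zpowers x ≤ E' := by rw [Subgroup.zpowers_le]; exact hx
      exact huE' (h5 h4)
    have hBcard : Nat.card B = p ^ 2 := by
      have hinf : Subgroup.zpowers u ⊓ Subgroup.zpowers x = ⊥ := by
        by_contra hne
        obtain ⟨y, hy1⟩ := (Subgroup.ne_bot_iff_exists_ne_one).mp hne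
        have hy1' : (y : G) ≠ 1 := fun h => hy1 (Subtype.ext h)
        have h1 : u ∈ Subgroup.zpowers (y : G) :=
          mem_zpowers_of_mem_zpowers_prime (hexp u hu) y.2.1 hy1'
        have h2 : Subgroup.zpowers (y : G) ≤ E' := by
          rw [Subgroup.zpowers_le]
          have h3 : Subgroup.zpowers x ≤ E' := by rw [Subgroup.zpowers_le]; exact hx
          exact h3 y.2.2
        exact huE' (h2 h1)
      have := Cfsg.Agent.Lib.Helper91.card_sup_mul_card_inf_of_le_normalizer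
        (Subgroup.zpowers u) (Subgroup.zpowers x)
        (le_normalizer_of_forall_comm (fun a ha b hb =>
          hcomm a (hBE ((le_sup_right : Subgroup.zpowers x ≤ B) ha)) b
            (hBE ((le_sup_left : Subgroup.zpowers u ≤ B) hb))))
      rw [hinf, Subgroup.card_bot, mul_one, card_zpowers_eq_prime (hexp u hu) hu1,
        card_zpowers_eq_prime (hexp x (hE'E hx)) hx1] at this
      rw [hB, this, sq]
    refine le_trans ?_ (hY B hBE hBcard hBnc)
    intro y hy
    obtain ⟨hy1, hyx⟩ := Subgroup.mem_inf.mp hy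
    obtain ⟨hyV, hyu⟩ := Subgroup.mem_inf.mp hy1
    refine Subgroup.mem_inf.mpr ⟨hyV, ?_⟩
    have h1 : B ≤ Subgroup.centralizer ({y} : Set G) := by
      rw [hB]
      refine sup_le ?_ ?_
      · rw [Subgroup.zpowers_le, Subgroup.mem_centralizer_iff]
        intro z hz
        rw [Set.mem_singleton_iff] at hz
        subst hz
        exact (Subgroup.mem_centralizer_iff.mp hyu u rfl).symm
      · rw [Subgroup.zpowers_le, Subgroup.mem_centralizer_iff]
        intro z hz
        rw [Set.mem_singleton_iff] at hz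
        subst hz
        exact (Subgroup.mem_centralizer_iff.mp hyx x rfl).symm
    rw [Subgroup.mem_centralizer_iff]
    intro b hb
    exact (Subgroup.mem_centralizer_iff.mp (h1 hb) y rfl).symm

/-- Corollary of P-E in contrapositive form. -/
theorem exists_noncyclic_not_le [Finite G] {p : ℕ} [Fact p.Prime] (V E : Subgroup G)
    (hcomm : ∀ x ∈ E, ∀ y ∈ E, x * y = y * x) (hexp : ∀ x ∈ E, x ^ p = 1)
    (hcard : p ^ 2 < Nat.card E) (hV : ¬ p ∣ Nat.card V)
    (hEV : E ≤ Subgroup.normalizer (V : Set G)) (Y : Subgroup G) (hVY : ¬ V ≤ Y) :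
    ∃ B : Subgroup G, B ≤ E ∧ Nat.card B = p ^ 2 ∧ ¬ IsCyclic B ∧
      ¬ V ⊓ Subgroup.centralizer (B : Set G) ≤ Y := by
  by_contra hne
  push Not at hne
  exact hVY (rank3_generation_le V E hcomm hexp hcard hV hEV Y hne)

/-- Corollary of P-E: a nontrivial `V` has nontrivial fixed points under some noncyclic
`B ≤ E`. -/
theorem exists_noncyclic_inf_centralizer_ne_bot [Finite G] {p : ℕ} [Fact p.Prime]
    (V E : Subgroup G) (hcomm : ∀ x ∈ E, ∀ y ∈ E, x * y = y * x) (hexp : ∀ x ∈ E, x ^ p = 1)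
    (hcard : p ^ 2 < Nat.card E) (hV : ¬ p ∣ Nat.card V)
    (hEV : E ≤ Subgroup.normalizer (V : Set G)) (hV1 : V ≠ ⊥) :
    ∃ B : Subgroup G, B ≤ E ∧ Nat.card B = p ^ 2 ∧ ¬ IsCyclic B ∧
      V ⊓ Subgroup.centralizer (B : Set G) ≠ ⊥ := by
  obtain ⟨B, hBE, hBc, hBnc, hB⟩ := exists_noncyclic_not_le V E hcomm hexp hcard hV hEV ⊥
    (fun h => hV1 (le_bot_iff.mp h))
  exact ⟨B, hBE, hBc, hBnc, fun h => hB (by rw [h])⟩

/-- Corollary of P-E: if `a` does not centralize `V` then `a` does not centralize `C_V(B)` for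
some noncyclic `B ≤ E`. -/
theorem exists_noncyclic_not_comm [Finite G] {p : ℕ} [Fact p.Prime] (V E : Subgroup G)
    (hcomm : ∀ x ∈ E, ∀ y ∈ E, x * y = y * x) (hexp : ∀ x ∈ E, x ^ p = 1)
    (hcard : p ^ 2 < Nat.card E) (hV : ¬ p ∣ Nat.card V)
    (hEV : E ≤ Subgroup.normalizer (V : Set G)) {a : G}
    (ha : ¬ ∀ v ∈ V, v * a = a * v) :
    ∃ B : Subgroup G, B ≤ E ∧ Nat.card B = p ^ 2 ∧ ¬ IsCyclic B ∧
      ∃ v ∈ V ⊓ Subgroup.centralizer (B : Set G), v * a ≠ a * v := by
  obtain ⟨B, hBE, hBc, hBnc, hB⟩ := exists_noncyclic_not_le V E hcomm hexp hcard hV hEV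
    (Subgroup.centralizer ({a} : Set G)) (by
      intro h
      apply ha
      intro v hv
      exact (Subgroup.mem_centralizer_iff.mp (h hv) a rfl).symm)
  refine ⟨B, hBE, hBc, hBnc, ?_⟩
  by_contra hne
  push Not at hne
  apply hB
  intro v hv
  rw [Subgroup.mem_centralizer_iff]
  intro z hz
  rw [Set.mem_singleton_iff] at hz
  subst hz
  exact (hne v hv).symm

theorem comm_of_isElementaryAbelian {p : ℕ} {E : Subgroup G} (hE : IsElementaryAbelian p E) :
    ∀ x ∈ E, ∀ y ∈ E, x * y = y * x := by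
  intro x hx y hy
  have := hE.1.is_comm.comm (⟨x, hx⟩ : E) ⟨y, hy⟩
  exact congrArg Subtype.val this

theorem isElementaryAbelian_of_le {p : ℕ} {E B : Subgroup G} (hE : IsElementaryAbelian p E)
    (hBE : B ≤ E) : IsElementaryAbelian p B :=
  ⟨⟨⟨fun x y => Subtype.ext (comm_of_isElementaryAbelian hE x (hBE x.2) y (hBE y.2))⟩⟩,
    fun a ha => hE.2 a (hBE ha)⟩

/-- P-E, `IsElementaryAbelian` form: if `a` does not centralize the `p'`-group `V`, normalized
by the elementary abelian `p`-group `E` of order `> p ^ 2`, then there is an elementary abelian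
noncyclic `B ≤ E` of order `p ^ 2` such that `a` does not centralize `C_V(B)`. -/
theorem exists_EA_sq_not_comm [Finite G] {p : ℕ} [Fact p.Prime] {V E : Subgroup G}
    (hE : IsElementaryAbelian p E) (hcard : p ^ 2 < Nat.card E) (hV : ¬ p ∣ Nat.card V)
    (hEV : E ≤ Subgroup.normalizer (V : Set G)) {a : G} (ha : ¬ ∀ v ∈ V, v * a = a * v) :
    ∃ B : Subgroup G, B ≤ E ∧ IsElementaryAbelian p B ∧ Nat.card B = p ^ 2 ∧ ¬ IsCyclic B ∧
      ∃ v ∈ V ⊓ Subgroup.centralizer (B : Set G), v * a ≠ a * v := by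
  obtain ⟨B, hBE, hBc, hBnc, hB⟩ := exists_noncyclic_not_comm V E
    (comm_of_isElementaryAbelian hE) hE.2 hcard hV hEV ha
  exact ⟨B, hBE, isElementaryAbelian_of_le hE hBE, hBc, hBnc, hB⟩

/-- P-E, `IsElementaryAbelian` form: a nontrivial `p'`-group `V` normalized by the elementary
abelian `p`-group `E` of order `> p ^ 2` has `C_V(B) ≠ 1` for some elementary abelian noncyclic
`B ≤ E` of order `p ^ 2`. -/
theorem exists_EA_sq_inf_centralizer_ne_bot [Finite G] {p : ℕ} [Fact p.Prime]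
    {V E : Subgroup G} (hE : IsElementaryAbelian p E) (hcard : p ^ 2 < Nat.card E)
    (hV : ¬ p ∣ Nat.card V) (hEV : E ≤ Subgroup.normalizer (V : Set G)) (hV1 : V ≠ ⊥) :
    ∃ B : Subgroup G, B ≤ E ∧ IsElementaryAbelian p B ∧ Nat.card B = p ^ 2 ∧ ¬ IsCyclic B ∧
      V ⊓ Subgroup.centralizer (B : Set G) ≠ ⊥ := by
  obtain ⟨B, hBE, hBc, hBnc, hB⟩ := exists_noncyclic_inf_centralizer_ne_bot V E
    (comm_of_isElementaryAbelian hE) hE.2 hcard hV hEV hV1
  exact ⟨B, hBE, isElementaryAbelian_of_le hE hBE, hBc, hBnc, hB⟩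

/-- P-E, general `IsElementaryAbelian` form with an arbitrary target subgroup `Y`. -/
theorem exists_EA_sq_not_le [Finite G] {p : ℕ} [Fact p.Prime] {V E : Subgroup G}
    (hE : IsElementaryAbelian p E) (hcard : p ^ 2 < Nat.card E) (hV : ¬ p ∣ Nat.card V)
    (hEV : E ≤ Subgroup.normalizer (V : Set G)) (Y : Subgroup G) (hVY : ¬ V ≤ Y) :
    ∃ B : Subgroup G, B ≤ E ∧ IsElementaryAbelian p B ∧ Nat.card B = p ^ 2 ∧ ¬ IsCyclic B ∧
      ¬ V ⊓ Subgroup.centralizer (B : Set G) ≤ Y := by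
  obtain ⟨B, hBE, hBc, hBnc, hB⟩ := exists_noncyclic_not_le V E
    (comm_of_isElementaryAbelian hE) hE.2 hcard hV hEV Y hVY
  exact ⟨B, hBE, isElementaryAbelian_of_le hE hBE, hBc, hBnc, hB⟩

end Cfsg.Agent.Lib.Helper89.BG95
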